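import Cfsg.Agent.H221.TC.Nonc

/-!
# Clean tori: the sum over all constant characters, several families (helper221; S2464, S2452)
-/

set_option autoImplicit false
set_option linter.unusedSectionVars false
set_option linter.style.haveILetI false

open Cfsg Subgroup
open scoped ComplexConjugate

namespace Cfsg.Agent.H221.TC

open Cfsg.Agent.Characters.Core

universe u

variable {G : Type u} [Group G] {A T : Subgroup G} {m : ℕ}

theorem card_triv [Finite G] (h : Tor A T m) : Nat.card {l : T →* ℂˣ // ¬ Nt A l} = A.relIndex T := by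
  classical
  refine le_antisymm ?_ (card_triv_ge h)
  have : Finite (T →* ℂˣ) := finite_hom
  letI : CommGroup T := { (inferInstance : Group T) with mul_comm := fun a b => Subtype.ext (h.comm _ a.2 _ b.2) }
  let B : Subgroup T := A.subgroupOf T
  have hcard : Nat.card ((T ⧸ B) →* ℂˣ) = Nat.card (T ⧸ B) := CommGroup.card_monoidHom_of_hasEnoughRootsOfUnity _ ℂ
  have h1 : A.relIndex T = Nat.card ((T ⧸ B) →* ℂˣ) := by
    rw [hcard]; rfl
  have : Finite ((T ⧸ B) →* ℂˣ) := Nat.finite_of_card_ne_zero (by rw [hcard]; exact Nat.card_pos.ne')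
  rw [h1]
  have hker : ∀ l : {l : T →* ℂˣ // ¬ Nt A l}, ∀ b ∈ B, l.1 b = 1 := by
    intro l b hb
    by_contra hc
    exact l.2 ⟨b, mem_subgroupOf.1 hb, hc⟩
  refine Nat.card_le_card_of_injective (fun l : {l : T →* ℂˣ // ¬ Nt A l} => QuotientGroup.lift B l.1 (hker l)) ?_
  intro l l' hll
  apply Subtype.ext
  refine MonoidHom.ext fun t => ?_
  exact DFunLike.congr_fun hll (QuotientGroup.mk t)

section Mult

variable [Fintype G] [Fintype T]

/-- the multiplicity of a linear character of `T` -/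
noncomputable def mlt (χ : IrrCharacter G) (l : T →* ℂˣ) : ℕ := (exists_mult χ l).choose

theorem mlt_spec (χ : IrrCharacter G) (l : T →* ℂˣ) :
    classInner (fun t : T => (χ : G → ℂ) t) (lf l) = mlt χ l := (exists_mult χ l).choose_spec

theorem inner_ind (χ : IrrCharacter G) (l l' : T →* ℂˣ) :
    classInner (indFun T (lf l - lf l')) (χ : G → ℂ) = (mlt χ l : ℂ) - mlt χ l' := by
  rw [S0146.result T _ _ (isIrr_isClassFunction χ.2), classInner_sub_left, ← classInner_conj_symm, mlt_spec,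
    ← classInner_conj_symm (fun t : T => (χ : G → ℂ) t), mlt_spec, Complex.conj_natCast, Complex.conj_natCast]

theorem mlt_comp (χ : IrrCharacter G) (l : T →* ℂˣ) (x : normalizer (T : Set G)) :
    mlt χ (l.comp (cj x)) = mlt χ l := by
  have h1 : (mlt χ (l.comp (cj x)) : ℂ) = mlt χ l := by
    rw [← mlt_spec, ← mlt_spec, classInner_def, classInner_def]
    congr 1
    refine Fintype.sum_bijective (cj x) ?_ _ _ fun t => ?_
    · refine ⟨fun a b hab' => ?_, fun a => ⟨cj x⁻¹ a, ?_⟩⟩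
      · have h2 := congrArg (cj x⁻¹) hab'
        have h3 : ∀ b : T, cj x⁻¹ (cj x b) = b := fun b => by
          have := DFunLike.congr_fun (cj_mul x x⁻¹) b
          rw [mul_inv_cancel, cj_one] at this
          exact this.symm
        rwa [h3, h3] at h2
      · have := DFunLike.congr_fun (cj_mul x⁻¹ x) a
        rw [inv_mul_cancel, cj_one] at this
        exact this.symm
    · have h2 : (χ : G → ℂ) (t : G) = (χ : G → ℂ) ((cj x t : T) : G) := by
        rw [cj_apply]
        have := isIrr_isClassFunction χ.2 (t : G) (x : G)⁻¹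
        rw [inv_inv] at this
        exact this.symm
      show (χ : G → ℂ) t * conj (lf (l.comp (cj x)) t) = (χ : G → ℂ) ((cj x t : T) : G) * conj (lf l (cj x t))
      rw [← h2]; rfl
  exact_mod_cast h1

/-- the difference of two multiplicities -/
noncomputable def dd (χ : IrrCharacter G) (l l' : T →* ℂˣ) : ℤ := (mlt χ l : ℤ) - mlt χ l'

theorem inner_ind' (χ : IrrCharacter G) (l l' : T →* ℂˣ) :
    classInner (indFun T (lf l - lf l')) (χ : G → ℂ) = (dd χ l l' : ℂ) := by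
  rw [inner_ind, dd]; push_cast; rfl

theorem sum_dd [Fintype (normalizer (T : Set G))] [Fintype (IrrCharacter G)] (h : Tor A T m) {l₁ l₂ l₃ l₄ : T →* ℂˣ}
    (h12 : SameE m l₁ l₂) :
    ((∑ χ : IrrCharacter G, dd χ l₁ l₂ * dd χ l₃ l₄ : ℤ) : ℂ) =
      (Nat.card T : ℂ)⁻¹ * ((mv l₁ l₃ : ℂ) - mv l₁ l₄ - mv l₂ l₃ + mv l₂ l₄) := by
  have hcf : ∀ β : T → ℂ, IsClassFunction G (indFun T β) := fun β =>
    Cfsg.Agent.Characters.Brauer.indFun_isClassFunction T β
  rw [← gram_diff h h12, classInner_eq_sum (hcf _) (hcf _), Int.cast_sum]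
  refine Finset.sum_congr rfl fun χ _ => ?_
  rw [inner_ind', inner_ind', Int.cast_mul, map_intCast]

/-- the members of a family have the same differences of multiplicities, for everything not conjugate to the family -/
theorem dd_mem [Fintype (normalizer (T : Set G))] [Fintype (IrrCharacter G)] (h : Tor A T m) {l₁ l₂ : T →* ℂˣ}
    (h12 : SameE m l₁ l₂) {n : ℕ} {rep : Fin n → (T →* ℂˣ)} {ε : ℂ} {μ : Fin n → (G → ℂ)} (hε : ε = 1 ∨ ε = -1)
    (hμ : ∀ i, IsIrrCharacter G (μ i))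
    (hτ : ∀ i j, indFun T (lf (rep i) - lf (rep j)) = ε • (μ i - μ j))
    (h1 : ∀ i, mv l₁ (rep i) = 0) (h2 : ∀ i, mv l₂ (rep i) = 0) (i j : Fin n) :
    dd ⟨μ i, hμ i⟩ l₁ l₂ = dd ⟨μ j, hμ j⟩ l₁ l₂ := by
  have h3 : classInner (indFun T (lf l₁ - lf l₂)) (indFun T (lf (rep i) - lf (rep j))) = 0 := by
    rw [gram_diff h h12, h1, h1, h2, h2]
    simp
  rw [hτ i j, classInner_smul_right, classInner_sub_right] at h3
  have h4 := inner_ind' ⟨μ i, hμ i⟩ l₁ l₂
  have h5 := inner_ind' ⟨μ j, hμ j⟩ l₁ l₂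
  rw [show ((⟨μ i, hμ i⟩ : IrrCharacter G) : G → ℂ) = μ i from rfl] at h4
  rw [show ((⟨μ j, hμ j⟩ : IrrCharacter G) : G → ℂ) = μ j from rfl] at h5
  rw [h4, h5] at h3
  have h6 : conj ε ≠ 0 := by
    rcases hε with h | h <;> rw [h] <;> simp
  have h7 := (mul_eq_zero.1 h3).resolve_left h6
  exact_mod_cast sub_eq_zero.1 h7

/-- characters outside a family have constant multiplicities on it -/
theorem dd_rep {n : ℕ} {rep : Fin n → (T →* ℂˣ)} {ε : ℂ} {μ : Fin n → (G → ℂ)}
    (hμ : ∀ i, IsIrrCharacter G (μ i))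
    (hτ : ∀ i j, indFun T (lf (rep i) - lf (rep j)) = ε • (μ i - μ j))
    {χ : IrrCharacter G} (hχ : ¬ ∃ i, (χ : G → ℂ) = μ i) (i j : Fin n) : mlt χ (rep i) = mlt χ (rep j) := by
  have h1 := inner_ind χ (rep i) (rep j)
  rw [hτ i j, classInner_smul_left, classInner_sub_left, classInner_irr_ne (hμ i) χ.2 fun h => hχ ⟨i, h.symm⟩,
    classInner_irr_ne (hμ j) χ.2 fun h => hχ ⟨j, h.symm⟩] at h1
  have h2 : (mlt χ (rep i) : ℂ) = mlt χ (rep j) := by linear_combination -h1
  exact_mod_cast h2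

/-- a member of a family has different multiplicities on it -/
theorem dd_self {n : ℕ} {rep : Fin n → (T →* ℂˣ)} {ε : ℂ} {μ : Fin n → (G → ℂ)}
    (hμ : ∀ i, IsIrrCharacter G (μ i)) (hinj : Function.Injective μ)
    (hτ : ∀ i j, indFun T (lf (rep i) - lf (rep j)) = ε • (μ i - μ j)) {i j : Fin n} (hij : i ≠ j) :
    (dd ⟨μ i, hμ i⟩ (rep i) (rep j) : ℂ) = ε := by
  have h1 := inner_ind' ⟨μ i, hμ i⟩ (rep i) (rep j)
  rw [hτ i j, classInner_smul_left, classInner_sub_left] at h1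
  have h2 : classInner (μ i) ((⟨μ i, hμ i⟩ : IrrCharacter G) : G → ℂ) = 1 := classInner_irr_self (hμ i)
  have h3 : classInner (μ j) ((⟨μ i, hμ i⟩ : IrrCharacter G) : G → ℂ) = 0 :=
    classInner_irr_ne (hμ j) (hμ i) fun h => hij (hinj h.symm)
  rw [h2, h3] at h1
  rw [← h1]; ring

/-- **value formula** on `{t : t ^ m ≠ 1}` outside all families -/
theorem val_of [Fintype (T →* ℂˣ)] (h : Tor A T m) {n : (T →* ℂˣ) → ℕ} {rep : ∀ g, Fin (n g) → (T →* ℂˣ)}
    {ε : (T →* ℂˣ) → ℂ} {μ : ∀ g, Fin (n g) → (G → ℂ)}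
    (hμ : ∀ g i, IsIrrCharacter G (μ g i))
    (hrep : ∀ g i, InFam A m g (rep g i))
    (hcov : ∀ g l, InFam A m g l → ∃ i, ∃ x : normalizer (T : Set G), l = (rep g i).comp (cj x))
    (hτ : ∀ g i j, indFun T (lf (rep g i) - lf (rep g j)) = ε g • (μ g i - μ g j))
    (i₀ : ∀ g, Fin (n g)) [DecidablePred (Nt (T := T) A)]
    (χ : IrrCharacter G) (hχ : ∀ g, ¬ Nt A g → ¬ ∃ i, (χ : G → ℂ) = μ g i) {t : T} (ht : t ^ m ≠ 1) :
    (χ : G → ℂ) t = ∑ g : T →* ℂˣ, if Nt A g then 0 else (dd χ g (rep g (i₀ g)) : ℂ) * ((g t : ℂˣ) : ℂ) := by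
  classical
  have hF : ∀ l l' : T →* ℂˣ, Nt A l → Nt A l' → SameE m l l' →
      classInner (fun t : T => (χ : G → ℂ) t) (lf l) = classInner (fun t : T => (χ : G → ℂ) t) (lf l') := by
    intro l l' hl hl' hs
    obtain ⟨g, hg, hgn⟩ := exists_gam h l
    obtain ⟨i, x, hi⟩ := hcov g l ⟨hl, fun t ht => (hg t ht).symm⟩
    obtain ⟨j, y, hj⟩ := hcov g l' ⟨hl', fun t ht => ((hs t ht).symm).trans (hg t ht).symm⟩
    rw [mlt_spec, mlt_spec, hi, hj, mlt_comp, mlt_comp, dd_rep (hμ g) (hτ g) (hχ g hgn) i j]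
  have h1 := value h hF (sel := fun g => rep g (i₀ g)) (fun g _ => hrep g _) ht
  have h2 : (χ : G → ℂ) t = _ := h1
  rw [h2]
  refine Finset.sum_congr rfl fun g _ => ?_
  by_cases hg : Nt A g
  · rw [if_pos hg, if_pos hg]
  · rw [if_neg hg, if_neg hg, mlt_spec, mlt_spec, dd]
    push_cast
    ring

end Mult

theorem pow_ne_of_mem [Finite G] (h : Tor A T m) {a : G} (ha : a ∈ A) (ha1 : a ≠ 1) : (⟨a, h.le ha⟩ : T) ^ m ≠ 1 := by
  intro h1
  apply ha1
  have h2 : a ^ m = 1 := by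
    have := congrArg (Subtype.val : T → G) h1
    simpa using this
  have h3 : orderOf a ∣ m := orderOf_dvd_of_pow_eq_one h2
  have h4 : orderOf a ∣ Nat.card A := Subgroup.orderOf_dvd_natCard A ha
  have h5 : orderOf a ∣ 1 := by
    have := Nat.dvd_gcd h3 h4
    rwa [h.cop] at this
  exact orderOf_eq_one_iff.1 (Nat.dvd_one.1 h5)

section Fix

variable [Finite G] (h : Tor A T m) (hE : ∀ e ∈ T, e ^ m = 1 → ∀ x ∈ normalizer (T : Set G), x * e = e * x)
include h hE

/-- conjugation fixes the elements of order dividing `m` -/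
theorem cj_fix {t : T} (ht : t ^ m = 1) (x : normalizer (T : Set G)) : cj x t = t := by
  ext
  rw [cj_apply]
  have h2 := hE t t.2 (by rw [← Subgroup.coe_pow, ht]; rfl) x x.2
  rw [mul_assoc, ← h2, ← mul_assoc, inv_mul_cancel, one_mul]

theorem mv_same {l l' : T →* ℂˣ} (hll : ¬ SameE m l l') : mv l l' = 0 := by
  refine mv_eq_zero fun x hx => hll fun t ht => ?_
  rw [← hx, MonoidHom.comp_apply, cj_fix h hE ht]

theorem comp_eq {g : T →* ℂˣ} (hg : ¬ Nt A g) (x : normalizer (T : Set G)) : g.comp (cj x) = g := by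
  refine eq_of_same h (not_nt_comp h hg x) hg fun t ht => ?_
  rw [MonoidHom.comp_apply, cj_fix h hE ht]

theorem mv_triv {g : T →* ℂˣ} (hg : ¬ Nt A g) : mv g g = T.relIndex (normalizer (T : Set G)) * Nat.card T := by
  have h1 : mv g g = Nat.card (normalizer (T : Set G)) :=
    Nat.card_congr ⟨fun x => x.1, fun x => ⟨x, comp_eq h hE hg x⟩, fun x => rfl, fun x => rfl⟩
  have h2 : Nat.card (T.subgroupOf (normalizer (T : Set G))) = Nat.card T :=
    Nat.card_congr (Subgroup.subgroupOfEquivOfLe le_normalizer).toEquiv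
  rw [h1, ← h2]
  exact (Subgroup.index_mul_card (T.subgroupOf (normalizer (T : Set G)))).symm

end Fix

theorem mv_nt (h : Tor A T m) [Finite G] {g l : T →* ℂˣ} (hg : ¬ Nt A g) (hl : Nt A l) : mv g l = 0 :=
  mv_eq_zero fun x hx => hg (hx ▸ nt_comp h hl x)

theorem mv_nt' (h : Tor A T m) [Finite G] {g l : T →* ℂˣ} (hg : ¬ Nt A g) (hl : Nt A l) : mv l g = 0 :=
  mv_eq_zero fun x hx => not_nt_comp h hg x (hx ▸ hl)

/-- **The sum over all characters constant on `A - 1`** -/
theorem sum_const [Finite G] [Fintype (IrrCharacter G)] (h : Tor A T m)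
    (hE : ∀ e ∈ T, e ^ m = 1 → ∀ x ∈ normalizer (T : Set G), x * e = e * x)
    (hm : Nat.card T = m * Nat.card A) {w : ℕ} (hw : T.relIndex (normalizer (T : Set G)) = w)
    (hk : (w + 2) * w + 1 < Nat.card A) :
    ∃ (c : IrrCharacter G → ℤ) (n : (T →* ℂˣ) → ℕ) (M : ∀ g : T →* ℂˣ, Fin (n g) → IrrCharacter G),
      (∀ χ : IrrCharacter G, (¬ ∃ g, ¬ Nt A g ∧ ∃ i, χ = M g i) → ∀ a ∈ A, a ≠ 1 → (χ : G → ℂ) a = c χ) ∧
      (∀ χ : IrrCharacter G, (∃ g, ¬ Nt A g ∧ ∃ i, χ = M g i) → c χ = 0) ∧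
      ∑ χ : IrrCharacter G, c χ ^ 2 = m * w ∧
        (∀ g, Function.Injective (M g)) ∧ (∀ g, w + 3 ≤ n g) ∧ (∀ g, Nat.card A ≤ n g * w + 1) ∧
        Nat.card {g : T →* ℂˣ // ¬ Nt A g} = m ∧
        ∀ g i j, ∀ y : G, (∀ x : G, ∀ t ∈ T, t ^ m ≠ 1 → y ≠ x * t * x⁻¹) → (M g i : G → ℂ) y = (M g j : G → ℂ) y := by
  classical
  have := Fintype.ofFinite G
  have : Fintype T := Fintype.ofFinite _
  have : Fintype (normalizer (T : Set G)) := Fintype.ofFinite _
  have : Finite (T →* ℂˣ) := finite_hom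
  have : Fintype (T →* ℂˣ) := Fintype.ofFinite _
  have hA : 1 < Nat.card A := by omega
  have hT0 : (Nat.card T : ℂ) ≠ 0 := by exact_mod_cast Nat.card_pos.ne'
  choose n rep ε μ hε hμ hinj hrep hdis hcov hτ using fun g : T →* ℂˣ => exists_fam' h hA g
  have hn1 : ∀ g, Nat.card A ≤ n g * w + 1 := by
    intro g
    have h1 := card_fam_le h (hcov g)
    have h2 := card_fam_ge h g
    rw [hw] at h1
    omega
  have hn : ∀ g, w + 3 ≤ n g := by
    intro g
    by_contra hcon
    have h1 : n g * w ≤ (w + 2) * w := Nat.mul_le_mul_right _ (by omega)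
    have := hn1 g
    omega
  have i₀ : ∀ g, Fin (n g) := fun g => ⟨0, by have := hn g; omega⟩
  let d : IrrCharacter G → (T →* ℂˣ) → ℤ := fun χ g => dd χ g (rep g (i₀ g))
  let Mem : IrrCharacter G → (T →* ℂˣ) → Prop := fun χ g => ∃ i, (χ : G → ℂ) = μ g i
  -- same restriction
  have hsame : ∀ g i, SameE m g (rep g i) := fun g i t ht => ((hrep g i).2 t ht).symm
  have hW : ∀ g, ¬ Nt A g → mv g g = w * Nat.card T := fun g hg => by rw [mv_triv h hE hg, hw]
  -- the squares outside the family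
  have hsq : ∀ g, ¬ Nt A g → (∑ χ : IrrCharacter G, if Mem χ g then (0 : ℤ) else d χ g ^ 2) = w := by
    intro g hg
    have h1 := sum_rule h hg (hε g) (hμ g) (hinj g) (fun i => (hrep g i).1) (hsame g) (hdis g) (hτ g) (hW g hg)
      (hn g) mlt mlt_spec (i₀ g)
    refine Eq.trans ?_ h1
    refine Finset.sum_congr rfl fun χ _ => ?_
    by_cases hχ : ∃ i, (χ : G → ℂ) = μ g i
    · rw [if_pos hχ, if_pos (show Mem χ g from hχ)]
    · rw [if_neg hχ, if_neg (show ¬ Mem χ g from hχ)]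
      rfl
  -- all squares
  have hsq' : ∀ g, ¬ Nt A g → ∑ χ : IrrCharacter G, d χ g * d χ g = w + 1 := by
    intro g hg
    have h1 := sum_dd h (l₃ := g) (l₄ := rep g (i₀ g)) (hsame g (i₀ g))
    rw [hW g hg, mv_nt h hg (hrep g _).1, mv_nt' h hg (hrep g _).1, mv_self h (hrep g _).1] at h1
    have h2 : ((∑ χ : IrrCharacter G, d χ g * d χ g : ℤ) : ℂ) = (((w : ℤ) + 1 : ℤ) : ℂ) := by
      rw [h1]
      push_cast
      field_simp
      ring
    exact_mod_cast h2
  -- different families do not see each other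
  have hns : ∀ g g', ¬ Nt A g → ¬ Nt A g' → g ≠ g' → ∀ l l' : T →* ℂˣ, SameE m g l → SameE m g' l' → mv l l' = 0 := by
    intro g g' hg hg' hgg l l' hl hl'
    refine mv_same h hE fun hs => hgg (eq_of_same h hg hg' fun t ht => ?_)
    rw [hl t ht, hs t ht, hl' t ht]
  have hd0 : ∀ g g', ¬ Nt A g → ¬ Nt A g' → g ≠ g' → ∀ χ, Mem χ g' → d χ g = 0 := by
    rintro g g' hg hg' hgg χ ⟨i, hi⟩
    have hχ : χ = ⟨μ g' i, hμ g' i⟩ := Subtype.ext hi
    have hall : ∀ j, d ⟨μ g' j, hμ g' j⟩ g = d χ g := by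
      intro j
      rw [hχ]
      exact dd_mem h (hsame g (i₀ g)) (hε g') (hμ g') (hτ g')
        (fun i => hns g g' hg hg' hgg _ _ (fun _ _ => rfl) (hsame g' i))
        (fun i => hns g g' hg hg' hgg _ _ (hsame g (i₀ g)) (hsame g' i)) j i
    by_contra hc
    have h1 : 1 ≤ d χ g * d χ g := by
      have : 0 < d χ g * d χ g := mul_self_pos.2 hc
      omega
    have h2 : ∑ j : Fin (n g'), d ⟨μ g' j, hμ g' j⟩ g * d ⟨μ g' j, hμ g' j⟩ g ≤
        ∑ χ : IrrCharacter G, d χ g * d χ g := by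
      have h3 : Function.Injective (fun j : Fin (n g') => (⟨μ g' j, hμ g' j⟩ : IrrCharacter G)) :=
        fun i j hij => hinj g' (congrArg Subtype.val hij)
      have h4 := Finset.sum_le_sum_of_subset_of_nonneg (f := fun χ : IrrCharacter G => d χ g * d χ g)
        (Finset.subset_univ (Finset.univ.map ⟨_, h3⟩)) fun χ _ _ => mul_self_nonneg _
      rw [Finset.sum_map] at h4
      exact h4
    rw [hsq' g hg, Finset.sum_congr rfl fun j _ => by rw [hall j], Finset.sum_const, Finset.card_univ, Fintype.card_fin,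
      nsmul_eq_mul] at h2
    have h3 : (w : ℤ) + 3 ≤ n g' := by exact_mod_cast hn g'
    nlinarith
  -- nonmembers
  let P : IrrCharacter G → Prop := fun χ => ∃ g, ¬ Nt A g ∧ Mem χ g
  have hPsq : ∀ g, ¬ Nt A g → (∑ χ : IrrCharacter G, if P χ then (0 : ℤ) else d χ g * d χ g) = w := by
    intro g hg
    rw [← hsq g hg]
    refine Finset.sum_congr rfl fun χ _ => ?_
    by_cases h1 : P χ
    · rw [if_pos h1]
      by_cases h2 : Mem χ g
      · rw [if_pos h2]
      · rw [if_neg h2]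
        obtain ⟨g', hg', hm'⟩ := h1
        have h3 : g ≠ g' := fun h => h2 (h ▸ hm')
        rw [hd0 g g' hg hg' h3 χ hm']
        norm_num
    · rw [if_neg h1, if_neg fun h2 => h1 ⟨g, hg, h2⟩, pow_two]
  have hPcr : ∀ g g', ¬ Nt A g → ¬ Nt A g' → g ≠ g' →
      (∑ χ : IrrCharacter G, if P χ then (0 : ℤ) else d χ g * d χ g') = 0 := by
    intro g g' hg hg' hgg
    have h1 := sum_dd h (l₃ := g') (l₄ := rep g' (i₀ g')) (hsame g (i₀ g))
    rw [hns g g' hg hg' hgg _ _ (fun _ _ => rfl) (fun _ _ => rfl),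
      hns g g' hg hg' hgg _ _ (fun _ _ => rfl) (hsame g' _),
      hns g g' hg hg' hgg _ _ (hsame g _) (fun _ _ => rfl), hns g g' hg hg' hgg _ _ (hsame g _) (hsame g' _)] at h1
    have h2 : ∑ χ : IrrCharacter G, d χ g * d χ g' = 0 := by
      have h3 : ((∑ χ : IrrCharacter G, d χ g * d χ g' : ℤ) : ℂ) = ((0 : ℤ) : ℂ) := by
        rw [h1]; simp
      exact_mod_cast h3
    refine Eq.trans ?_ h2
    refine Finset.sum_congr rfl fun χ _ => ?_
    by_cases h3 : P χ
    · rw [if_pos h3]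
      obtain ⟨f, hf, hm'⟩ := h3
      by_cases h4 : g = f
      · subst h4
        rw [hd0 g' g hg' hg hgg.symm χ hm', mul_zero]
      · rw [hd0 g f hg hf h4 χ hm', zero_mul]
    · rw [if_neg h3]
  let c : IrrCharacter G → ℤ := fun χ => if P χ then 0 else ∑ g : T →* ℂˣ, if Nt A g then 0 else d χ g
  have hcsum : ∑ χ : IrrCharacter G, c χ ^ 2 = m * w := by
    have h1 : ∀ χ, c χ ^ 2 = ∑ g : T →* ℂˣ, ∑ g' : T →* ℂˣ, if Nt A g ∨ Nt A g' then (0 : ℤ) else
        if P χ then 0 else d χ g * d χ g' := by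
      intro χ
      by_cases h3 : P χ
      · have : c χ = 0 := if_pos h3
        rw [this]
        symm
        rw [show ((0 : ℤ)) ^ 2 = 0 by norm_num]
        refine Finset.sum_eq_zero fun g _ => Finset.sum_eq_zero fun g' _ => ?_
        rw [if_pos h3, ite_self]
      · have : c χ = ∑ g : T →* ℂˣ, if Nt A g then 0 else d χ g := if_neg h3
        rw [this, pow_two, Finset.sum_mul_sum]
        refine Finset.sum_congr rfl fun g _ => Finset.sum_congr rfl fun g' _ => ?_
        by_cases h4 : Nt A g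
        · rw [if_pos h4, if_pos (Or.inl h4), zero_mul]
        · by_cases h5 : Nt A g'
          · rw [if_pos h5, if_pos (Or.inr h5), mul_zero]
          · rw [if_neg h4, if_neg h5, if_neg (not_or.2 ⟨h4, h5⟩), if_neg h3]
    rw [Finset.sum_congr rfl fun χ _ => h1 χ, Finset.sum_comm]
    have h2 : ∀ g : T →* ℂˣ, (∑ χ : IrrCharacter G, ∑ g' : T →* ℂˣ, if Nt A g ∨ Nt A g' then (0 : ℤ) else
        if P χ then 0 else d χ g * d χ g') = if Nt A g then 0 else (w : ℤ) := by
      intro g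
      rw [Finset.sum_comm]
      by_cases hg : Nt A g
      · rw [if_pos hg]
        exact Finset.sum_eq_zero fun g' _ => Finset.sum_eq_zero fun χ _ => if_pos (Or.inl hg)
      · rw [if_neg hg, Finset.sum_eq_single g]
        · refine Eq.trans ?_ (hPsq g hg)
          exact Finset.sum_congr rfl fun χ _ => if_neg (not_or.2 ⟨hg, hg⟩)
        · intro g' _ hgg
          by_cases hg' : Nt A g'
          · exact Finset.sum_eq_zero fun χ _ => if_pos (Or.inr hg')
          · refine Eq.trans ?_ (hPcr g g' hg hg' (Ne.symm hgg))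
            exact Finset.sum_congr rfl fun χ _ => if_neg (not_or.2 ⟨hg, hg'⟩)
        · intro h3; exact absurd (Finset.mem_univ _) h3
    rw [Finset.sum_congr rfl fun g _ => h2 g]
    have h3 : (∑ g : T →* ℂˣ, if Nt A g then (0 : ℤ) else (w : ℤ)) =
        ((Finset.univ.filter fun g : T →* ℂˣ => ¬ Nt A g).card : ℤ) * w := by
      rw [Finset.card_filter, Nat.cast_sum, Finset.sum_mul]
      refine Finset.sum_congr rfl fun g _ => ?_
      by_cases hg : Nt A g
      · rw [if_pos hg, if_neg (not_not.2 hg)]; simp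
      · rw [if_neg hg, if_pos hg]; simp
    have h4 : (Finset.univ.filter fun g : T →* ℂˣ => ¬ Nt A g).card = m := by
      have h5 : (Finset.univ.filter fun g : T →* ℂˣ => ¬ Nt A g).card = Nat.card {l : T →* ℂˣ // ¬ Nt A l} := by
        rw [Nat.card_eq_fintype_card, Fintype.card_subtype]
      rw [h5]
      have h6 : A.relIndex T = m := by
        have h3 := relIndex_mul h
        rw [hm] at h3
        exact Nat.eq_of_mul_eq_mul_right Nat.card_pos h3
      rw [← h6]
      exact card_triv h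
    rw [h3, h4]
  have hPM : ∀ χ : IrrCharacter G, (∃ g, ¬ Nt A g ∧ ∃ i, χ = (⟨μ g i, hμ g i⟩ : IrrCharacter G)) ↔ P χ := by
    intro χ
    constructor
    · rintro ⟨g, hg, i, hi⟩
      exact ⟨g, hg, i, congrArg Subtype.val hi⟩
    · rintro ⟨g, hg, i, hi⟩
      exact ⟨g, hg, i, Subtype.ext hi⟩
  refine ⟨c, n, fun g i => ⟨μ g i, hμ g i⟩, ?_, ?_, hcsum, fun g i j hij => hinj g (congrArg Subtype.val hij), hn, hn1,
    ?_, ?_⟩
  · intro χ hχ a ha ha1
    have hP : ¬ P χ := fun hp => hχ ((hPM χ).2 hp)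
    have h1 := val_of h hμ hrep hcov hτ i₀ χ (fun g hg hm' => hP ⟨g, hg, hm'⟩) (pow_ne_of_mem h ha ha1)
    have h2 : (χ : G → ℂ) a = _ := h1
    have h3 : c χ = ∑ g : T →* ℂˣ, if Nt A g then 0 else d χ g := if_neg hP
    rw [h2, h3, Int.cast_sum]
    refine Finset.sum_congr rfl fun g _ => ?_
    by_cases hg : Nt A g
    · rw [if_pos hg, if_pos hg, Int.cast_zero]
    · rw [if_neg hg, if_neg hg]
      have h3 : g ⟨a, h.le ha⟩ = 1 := by
        by_contra hc
        exact hg ⟨_, ha, hc⟩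
      rw [h3, Units.val_one, mul_one]
  · intro χ hχ
    exact if_pos ((hPM χ).1 hχ)
  · rw [card_triv h]
    have h3 := relIndex_mul h
    rw [hm] at h3
    exact Nat.eq_of_mul_eq_mul_right Nat.card_pos h3
  · intro g i j y hy
    have h1 := congrFun (hτ g i j) y
    have h2 : indFun T (lf (rep g i) - lf (rep g j)) y = 0 := by
      rw [indFun_apply]
      refine mul_eq_zero_of_right _ (Finset.sum_eq_zero fun x _ => ?_)
      by_cases hx : x⁻¹ * y * x ∈ T
      · have h3 : (x⁻¹ * y * x) ^ m = 1 := by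
          by_contra h4
          exact hy x _ hx h4 (by group)
        rw [extendByZero_of_mem T _ hx]
        have h4 : (⟨x⁻¹ * y * x, hx⟩ : T) ^ m = 1 := Subtype.ext (by rw [Subgroup.coe_pow]; exact h3)
        rw [Pi.sub_apply, lf_apply, lf_apply, (hrep g i).2 _ h4, (hrep g j).2 _ h4, sub_self]
      · exact extendByZero_of_notMem T _ hx
    rw [h2, Pi.smul_apply, Pi.sub_apply, smul_eq_mul] at h1
    have h5 : μ g i y - μ g j y = 0 := by
      rcases hε g with h6 | h6 <;> rw [h6] at h1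
      · linear_combination -h1
      · linear_combination h1
    exact sub_eq_zero.1 h5

end Cfsg.Agent.H221.TC
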