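import Cfsg.Agent.H4.TCG.Two
import Cfsg.Agent.H221.TC.All
import Cfsg.Agent.H221.TC.Three

/-!
# Two tori of `G₂(q)`: the values (helper221; S2464, row `G₂(q)`)
-/

set_option autoImplicit false
set_option linter.unusedSectionVars false
set_option linter.style.haveILetI false

open Cfsg Subgroup
open scoped ComplexConjugate

namespace Cfsg.Agent.H221.TC

open Cfsg.Agent.Characters.Core Cfsg.Agent.H641.TC6 Cfsg.Agent.H4.TCG

universe u

variable {G : Type u} [Group G] {A T A' T' : Subgroup G} {m n m' n' : ℕ}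

section

variable [Fintype G] [Fintype T] [Fintype (T →* ℂˣ)]

open Classical in
/-- the quadratic form from the characters trivial on `A` -/
theorem QQ_ge_triv (h : Tor A T 3) {f : (T →* ℂˣ) → ℤ} {n : ℕ}
    (hn : ∀ l : T →* ℂˣ, (Finset.univ.filter fun l' : T →* ℂˣ => SameE 3 l l').card = n)
    {d : (T →* ℂˣ) → ℤ} (hd : ∀ g, ¬ Nt A g → ∀ l, Nt A l → SameE 3 g l → f g - f l = d g) :
    2 * ((n : ℤ) - 1) * ∑ g ∈ Finset.univ.filter (fun g : T →* ℂˣ => ¬ Nt A g), d g ^ 2 ≤ QQ (SameE (T := T) 3) f := by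
  let S := Finset.univ.filter fun g : T →* ℂˣ => ¬ Nt A g
  have hS : ∀ g, g ∈ S ↔ ¬ Nt A g := fun g => by simp [S]
  let F : (T →* ℂˣ) → (T →* ℂˣ) → ℤ := fun a b => if SameE 3 a b then (f a - f b) ^ 2 else 0
  have hF0 : ∀ a b, 0 ≤ F a b := by
    intro a b
    show 0 ≤ (if SameE 3 a b then (f a - f b) ^ 2 else 0 : ℤ)
    split_ifs
    · positivity
    · exact le_rfl
  have hFs : ∀ a b, F a b = F b a := by
    intro a b
    show (if SameE 3 a b then (f a - f b) ^ 2 else 0 : ℤ) = if SameE 3 b a then (f b - f a) ^ 2 else 0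
    by_cases h1 : SameE 3 a b
    · rw [if_pos h1, if_pos (same_symm h1)]; ring
    · rw [if_neg h1, if_neg fun h2 => h1 (same_symm h2)]
  have h1 : QQ (SameE (T := T) 3) f = ∑ a : T →* ℂˣ, ∑ b : T →* ℂˣ, F a b := rfl
  have hrow : ∀ g ∈ S, ∑ b ∈ Sᶜ, F g b = ((n : ℤ) - 1) * d g ^ 2 := by
    intro g hg
    rw [hS] at hg
    have h2 : ∀ b ∈ Sᶜ, F g b = if SameE 3 g b then d g ^ 2 else 0 := by
      intro b hb
      rw [Finset.mem_compl, hS, not_not] at hb
      show (if SameE 3 g b then (f g - f b) ^ 2 else 0 : ℤ) = _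
      by_cases h3 : SameE 3 g b
      · rw [if_pos h3, if_pos h3, hd g hg b hb h3]
      · rw [if_neg h3, if_neg h3]
    rw [Finset.sum_congr rfl h2, ← Finset.sum_filter, Finset.sum_const, nsmul_eq_mul]
    congr 1
    have h3 : Sᶜ.filter (SameE 3 g) = (Finset.univ.filter fun l' : T →* ℂˣ => SameE 3 g l').erase g := by
      ext b
      rw [Finset.mem_filter, Finset.mem_erase, Finset.mem_filter, Finset.mem_compl, hS, not_not]
      constructor
      · rintro ⟨hb, hs⟩
        exact ⟨fun e => hg (e ▸ hb), Finset.mem_univ _, hs⟩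
      · rintro ⟨hb, -, hs⟩
        refine ⟨?_, hs⟩
        by_contra hc
        exact hb (eq_of_same h hc hg (same_symm hs))
    rw [h3, Finset.card_erase_of_mem (Finset.mem_filter.2 ⟨Finset.mem_univ _, fun _ _ => rfl⟩), hn g]
    have : 1 ≤ n := by
      rw [← hn g]
      exact Finset.card_pos.2 ⟨g, Finset.mem_filter.2 ⟨Finset.mem_univ _, fun _ _ => rfl⟩⟩
    omega
  have h2 : ∑ a : T →* ℂˣ, ∑ b : T →* ℂˣ, F a b ≥ (∑ a ∈ S, ∑ b ∈ Sᶜ, F a b) + ∑ a ∈ Sᶜ, ∑ b ∈ S, F a b := by
    rw [← Finset.sum_add_sum_compl S]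
    refine add_le_add ?_ ?_
    · refine Finset.sum_le_sum fun a _ => ?_
      exact Finset.sum_le_sum_of_subset_of_nonneg (Finset.subset_univ _) fun b _ _ => hF0 a b
    · refine Finset.sum_le_sum fun a _ => ?_
      exact Finset.sum_le_sum_of_subset_of_nonneg (Finset.subset_univ _) fun b _ _ => hF0 a b
  have h3 : ∑ a ∈ Sᶜ, ∑ b ∈ S, F a b = ∑ a ∈ S, ∑ b ∈ Sᶜ, F a b := by
    rw [Finset.sum_comm]
    exact Finset.sum_congr rfl fun a _ => Finset.sum_congr rfl fun b _ => hFs b a
  rw [h3, Finset.sum_congr rfl hrow, ← Finset.mul_sum] at h2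
  rw [h1]
  show 2 * ((n : ℤ) - 1) * ∑ g ∈ S, d g ^ 2 ≤ _
  linarith

end

set_option maxHeartbeats 2000000 in
/-- **The values.** -/
theorem value_two [Fintype G] (D : TorD G m n 6 A T) (h3 : m ∣ 3 * n) (hn : n.Coprime 3) (h37 : 37 ≤ n)
    (D' : TorD G m' n' 6 A' T') (h3' : m' ∣ 3 * n') (hn' : n'.Coprime 3) (h37' : 37 ≤ n') (hne : m ≠ m')
    (hk : 36 * n' + n ≤ n * n') (hinv : 3 ∣ m → ∃ x ∈ normalizer (T : Set G), ∀ t ∈ T, x⁻¹ * t * x = t⁻¹)
    {χ : G → ℂ} (hχ : IsIrrCharacter G χ) {y : G} (hy : y ∈ supp T' 3) (hy0 : χ y ≠ 0) :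
    ∃ b : ℤ, |b| ≤ 2 ∧ ∀ a ∈ A, a ≠ 1 → χ a = b := by
  classical
  have := Fintype.ofFinite T
  have : Finite (T →* ℂˣ) := finite_hom
  have := Fintype.ofFinite (T →* ℂˣ)
  have h := tor_of D h3 hn
  have h' := tor_of D' h3' hn'
  obtain ⟨f, hf, h1, h2⟩ := exists_form D h3 hn hχ
  have hconst : ∀ l l' : T →* ℂˣ, Nt A l → Nt A l' → SameE 3 l l' → f l = f l' := by
    intro l l' hl hl' hs
    have h4 := const_mult D h3 hn D' h3' hn' hne hk hχ hy hy0 l l' hl hl' hs
    rw [hf, hf] at h4
    exact_mod_cast h4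
  have hA1 : 1 < Nat.card A := by rw [D.cardA]; omega
  have hsel : ∀ g : T →* ℂˣ, ∃ l : T →* ℂˣ, InFam A 3 g l := by
    intro g
    have h4 := card_fam_ge h g
    have h5 : 0 < Nat.card {l : T →* ℂˣ // InFam A 3 g l} := by omega
    obtain ⟨l⟩ := (Nat.card_pos_iff.1 h5).1
    exact ⟨l.1, l.2⟩
  choose sel hsel using hsel
  let d : (T →* ℂˣ) → ℤ := fun g => f g - f (sel g)
  have hd : ∀ g, ¬ Nt A g → ∀ l, Nt A l → SameE 3 g l → f g - f l = d g := by
    intro g _ l hl hs
    show f g - f l = f g - f (sel g)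
    rw [hconst l (sel g) hl (hsel g).1 (same_trans (same_symm hs) (same_symm (hsel g).2))]
  -- the bound
  let S := Finset.univ.filter fun g : T →* ℂˣ => ¬ Nt A g
  have hS : ∀ g, g ∈ S ↔ ¬ Nt A g := fun g => by simp [S]
  have hQ := QQ_ge_triv h h2 hd
  have h5 := joint h h' (by rw [D.cardT, D'.cardT]; exact hne) hχ
  have h6 := share_ge D' h3' hn' hχ hy hy0
  rw [h1] at h5
  have hsum5 : ∑ g ∈ S, d g ^ 2 ≤ 5 := by
    by_contra hc
    have h7 : (6 : ℤ) ≤ ∑ g ∈ S, d g ^ 2 := by omega
    have h8 : 12 * ((n : ℤ) - 1) ≤ QQ (SameE (T := T) 3) f := by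
      refine le_trans ?_ hQ
      have h9 : (0 : ℤ) ≤ 2 * ((n : ℤ) - 1) := by omega
      have h10 := mul_le_mul_of_nonneg_left h7 h9
      linarith
    have h9 : 12 * ((n : ℝ) - 1) ≤ ((QQ (SameE (T := T) 3) f : ℤ) : ℝ) := by exact_mod_cast h8
    have hn0 : (37 : ℝ) ≤ n := by exact_mod_cast h37
    have hn0' : (37 : ℝ) ≤ n' := by exact_mod_cast h37'
    have e1 : (12 * ((n : ℝ) - 1)) / (12 * n) ≤ ((QQ (SameE (T := T) 3) f : ℤ) : ℝ) / (12 * n) :=
      div_le_div_of_nonneg_right h9 (by positivity)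
    have e2 : (12 * ((n : ℝ) - 1)) / (12 * n) + ((n' : ℝ) - 1) / (6 * n') < 1 := by linarith
    have e3 : (12 * ((n : ℝ) - 1)) / (12 * n) = 1 - 1 / n := by field_simp
    have e4 : ((n' : ℝ) - 1) / (6 * n') = 1 / 6 - 1 / (6 * n') := by field_simp
    have e5 : 1 / (n : ℝ) ≤ 1 / 37 := one_div_le_one_div_of_le (by norm_num) hn0
    have e6 : 1 / (6 * (n' : ℝ)) ≤ 1 / (6 * 37) := one_div_le_one_div_of_le (by norm_num) (by linarith)
    rw [e3, e4] at e2
    norm_num at e5 e6 e2
    linarith
  have hval : ∀ t : T, t ^ 3 ≠ 1 → χ t = ∑ g ∈ S, (d g : ℂ) * ((g t : ℂˣ) : ℂ) := by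
    intro t ht
    have h7 := value h (F := fun t : T => χ t) (sel := sel)
      (fun l l' hl hl' hs => by rw [hf, hf, hconst l l' hl hl' hs]) (fun g _ => hsel g) ht
    have h8 : χ t = _ := h7
    rw [h8, Finset.sum_filter]
    refine Finset.sum_congr rfl fun g _ => ?_
    by_cases hg : Nt A g
    · rw [if_pos hg, if_neg (not_not.2 hg)]
    · rw [if_neg hg, if_pos hg, hf, hf]
      show _ = ((f g - f (sel g) : ℤ) : ℂ) * _
      push_cast
      ring
  have hAval : ∀ a ∈ A, a ≠ 1 → χ a = ((∑ g ∈ S, d g : ℤ) : ℂ) := by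
    intro a ha ha1
    have h7 := hval ⟨a, h.le ha⟩ (pow_ne_of_mem h ha ha1)
    have h8 : χ a = _ := h7
    rw [h8, Int.cast_sum]
    refine Finset.sum_congr rfl fun g hg => ?_
    have h9 : g ⟨a, h.le ha⟩ = 1 := by
      by_contra hc
      exact (hS g).1 hg ⟨_, ha, hc⟩
    rw [h9, Units.val_one, mul_one]
  have h1S : (1 : T →* ℂˣ) ∈ S := by
    rw [hS]
    rintro ⟨a, -, ha⟩
    exact ha rfl
  have hcardS : S.card = A.relIndex T := by
    rw [← card_triv h, Nat.card_eq_fintype_card, Fintype.card_subtype]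
  have hrel := relIndex_mul h
  rw [D.cardA, D.cardT] at hrel
  have hn0 : 0 < n := by omega
  rcases m_cases D h3 hn with ⟨hm, hm3⟩ | ⟨hm, hm3⟩
  · -- `S = {1}`
    have h7 : A.relIndex T = 1 := by
      rw [hm] at hrel
      exact Nat.eq_of_mul_eq_mul_right hn0 (by rw [hrel, one_mul])
    rw [h7] at hcardS
    obtain ⟨g, hg⟩ := Finset.card_eq_one.1 hcardS
    rw [hg, Finset.sum_singleton] at hsum5
    refine ⟨d g, ?_, fun a ha ha1 => ?_⟩
    · rw [abs_le]; constructor <;> nlinarith
    · rw [hAval a ha ha1, hg, Finset.sum_singleton]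
  · -- `S = {1, ω, ω⁻¹}`
    have h7 : A.relIndex T = 3 := by
      rw [hm, mul_comm n 3] at hrel
      exact Nat.eq_of_mul_eq_mul_right hn0 hrel
    rw [h7] at hcardS
    obtain ⟨x, hxN, hx⟩ := hinv hm3
    obtain ⟨om, hom, hom1⟩ : ∃ g ∈ S, g ≠ 1 := by
      by_contra hc
      push Not at hc
      have h8 : S ⊆ {1} := fun g hg => Finset.mem_singleton.2 (hc g hg)
      have h9 := Finset.card_le_card h8
      rw [hcardS, Finset.card_singleton] at h9
      omega
    have hcjx : ∀ t : T, cj ⟨x, hxN⟩ t = t⁻¹ := by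
      intro t
      ext
      rw [cj_apply]
      exact hx t t.2
    let oi : T →* ℂˣ := om.comp (cj ⟨x, hxN⟩)
    have hoi : ∀ t : T, oi t = (om t)⁻¹ := by
      intro t
      show om (cj ⟨x, hxN⟩ t) = _
      rw [hcjx, map_inv]
    have hoiS : oi ∈ S := by
      rw [hS]
      exact not_nt_comp h ((hS om).1 hom) _
    have hom3 : ∀ t : T, om t ^ 3 = 1 := by
      intro t
      rw [← map_pow]
      by_contra hc
      exact (hS om).1 hom ⟨t ^ 3, by rw [Subgroup.coe_pow]; exact h.pow t t.2, hc⟩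
    have hoi1 : oi ≠ 1 := by
      intro hc
      apply hom1
      ext t
      have h8 := DFunLike.congr_fun hc t
      rw [hoi] at h8
      have h9 : om t = 1 := inv_eq_one.1 h8
      rw [h9]; rfl
    have hoiom : oi ≠ om := by
      intro hc
      apply hom1
      ext t
      have h8 := DFunLike.congr_fun hc t
      rw [hoi] at h8
      have h9 : om t ^ 2 = 1 := by
        rw [pow_two]
        nth_rewrite 1 [← h8]
        exact inv_mul_cancel _
      have h10 : om t = 1 := by
        have h11 := hom3 t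
        rw [pow_succ, h9, one_mul] at h11
        exact h11
      rw [h10]; rfl
    have hSeq : S = {1, om, oi} := by
      symm
      refine Finset.eq_of_subset_of_card_le ?_ ?_
      · intro g hg
        simp only [Finset.mem_insert, Finset.mem_singleton] at hg
        rcases hg with rfl | rfl | rfl
        · exact h1S
        · exact hom
        · exact hoiS
      · rw [hcardS, Finset.card_insert_of_notMem (by simp [Ne.symm hom1, Ne.symm hoi1]),
          Finset.card_insert_of_notMem (by simp [Ne.symm hoiom]), Finset.card_singleton]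
    have hsum3 : ∀ F : (T →* ℂˣ) → ℂ, ∑ g ∈ S, F g = F 1 + (F om + F oi) := by
      intro F
      rw [hSeq, Finset.sum_insert (by simp [Ne.symm hom1, Ne.symm hoi1]), Finset.sum_insert (by simp [Ne.symm hoiom]),
        Finset.sum_singleton]
    have hsum3' : ∀ F : (T →* ℂˣ) → ℤ, ∑ g ∈ S, F g = F 1 + (F om + F oi) := by
      intro F
      rw [hSeq, Finset.sum_insert (by simp [Ne.symm hom1, Ne.symm hoi1]), Finset.sum_insert (by simp [Ne.symm hoiom]),
        Finset.sum_singleton]
    have hdo : d oi = d om := by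
      have h8 : f oi = f om := mult_inv (isIrr_isClassFunction hχ) hf _ _
      have h9 : f (sel oi) = f ((sel om).comp (cj ⟨x, hxN⟩)) := by
        refine hconst _ _ (hsel oi).1 (nt_comp h (hsel om).1 _) ?_
        refine same_trans (hsel oi).2 ?_
        exact same_comp (same_symm (hsel om).2)
      have h10 : f ((sel om).comp (cj ⟨x, hxN⟩)) = f (sel om) := mult_inv (isIrr_isClassFunction hχ) hf _ _
      show f oi - f (sel oi) = f om - f (sel om)
      rw [h8, h9, h10]
    rw [hsum3', hdo] at hsum5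
    rw [hsum3', hdo] at hAval
    have hbd : |d 1 + (d om + d om)| ≤ 2 ∨ (d 1 = d om ∧ (d om = 1 ∨ d om = -1)) := by
      have h8 : d om ^ 2 ≤ 2 := by nlinarith [sq_nonneg (d 1)]
      have h9 : d om = 0 ∨ d om = 1 ∨ d om = -1 := by
        have : -1 ≤ d om ∧ d om ≤ 1 := by constructor <;> nlinarith
        omega
      rcases h9 with h9 | h9 | h9
      · left
        rw [h9] at hsum5 ⊢
        rw [abs_le]; constructor <;> nlinarith
      · rw [h9] at hsum5 ⊢
        have h10 : -1 ≤ d 1 ∧ d 1 ≤ 1 := by constructor <;> nlinarith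
        by_cases h11 : d 1 = 1
        · right; exact ⟨h11, Or.inl rfl⟩
        · left; rw [abs_le]; constructor <;> omega
      · rw [h9] at hsum5 ⊢
        have h10 : -1 ≤ d 1 ∧ d 1 ≤ 1 := by constructor <;> nlinarith
        by_cases h11 : d 1 = -1
        · right; exact ⟨h11, Or.inr rfl⟩
        · left; rw [abs_le]; constructor <;> omega
    rcases hbd with hbd | ⟨hd1, hdpm⟩
    · exact ⟨_, hbd, hAval⟩
    · exfalso
      -- `χ s = ± 3`
      obtain ⟨r, hr, hrn⟩ := Nat.exists_prime_and_dvd (show n ≠ 1 by omega)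
      have : Fact r.Prime := ⟨hr⟩
      have hr3 : r ≠ 3 := by
        rintro rfl
        have := Nat.dvd_gcd hrn (dvd_refl 3)
        rw [hn] at this
        omega
      obtain ⟨s, hs⟩ := exists_prime_orderOf_dvd_card' (G := A) r (by rw [D.cardA]; exact hrn)
      have : Fact (Nat.Prime 3) := ⟨Nat.prime_three⟩
      obtain ⟨e, he⟩ := exists_prime_orderOf_dvd_card' (G := T) 3 (by rw [D.cardT]; exact hm3)
      have hso : orderOf (s : G) = r := by rw [Subgroup.orderOf_coe, hs]
      have heo : orderOf (e : G) = 3 := by rw [Subgroup.orderOf_coe, he]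
      have hs1 : (s : G) ≠ 1 := by
        intro hc
        rw [hc, orderOf_one] at hso
        exact hr.one_lt.ne hso
      have hsT : (s : G) ∈ T := h.le s.2
      have he3 : e ^ 3 = 1 := by rw [← he]; exact pow_orderOf_eq_one e
      have he1 : e ≠ 1 := by
        rintro rfl
        rw [orderOf_one] at he
        omega
      have hse : Commute (s : G) (e : G) := h.comm _ hsT _ e.2
      have hinvx : (x : G)⁻¹ * e * x = (e : G)⁻¹ := hx e e.2
      have hKK : ∀ k : T, k ^ 3 = 1 → k = 1 ∨ k = e ∨ k = e⁻¹ := by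
        intro k hk
        have h8 := card_E D h3 hn
        rw [D.cardT, hm] at h8
        have h9 : (Finset.univ.filter fun s : T => s ^ 3 = 1).card = 3 := Nat.eq_of_mul_eq_mul_left hn0 h8
        have hee : e ≠ e⁻¹ := by
          intro hc
          have h10 : e ^ 2 = 1 := by rw [pow_two]; nth_rewrite 2 [hc]; rw [mul_inv_cancel]
          have h11 := orderOf_dvd_of_pow_eq_one h10
          rw [he] at h11
          omega
        have h10 : ({1, e, e⁻¹} : Finset T) = Finset.univ.filter fun s : T => s ^ 3 = 1 := by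
          refine Finset.eq_of_subset_of_card_le ?_ ?_
          · intro z hz
            simp only [Finset.mem_insert, Finset.mem_singleton] at hz
            rw [Finset.mem_filter]
            refine ⟨Finset.mem_univ _, ?_⟩
            rcases hz with rfl | rfl | rfl
            · exact one_pow _
            · exact he3
            · rw [inv_pow, he3, inv_one]
          · rw [h9, Finset.card_insert_of_notMem (by simp [Ne.symm he1, he1]), Finset.card_insert_of_notMem (by simp [hee]),
              Finset.card_singleton]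
        have h11 : k ∈ ({1, e, e⁻¹} : Finset T) := by
          rw [h10, Finset.mem_filter]
          exact ⟨Finset.mem_univ _, hk⟩
        simpa only [Finset.mem_insert, Finset.mem_singleton] using h11
      have hK : ∀ k : G, IsConj (e : G) k → Commute (s : G) k → k = e ∨ k = (e : G)⁻¹ := by
        intro k hk hsk
        have hkT : k ∈ T := by
          refine h.cent s s.2 hs1 ?_
          rw [mem_centralizer_singleton_iff]
          exact hsk.symm.eq
        have hko : orderOf k = 3 := by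
          obtain ⟨c, hc⟩ := isConj_iff.1 hk
          rw [← hc, ← MulAut.conj_apply, (MulAut.conj c).orderOf_eq, heo]
        have h8 : (⟨k, hkT⟩ : T) ^ 3 = 1 := by
          ext
          show k ^ 3 = 1
          rw [← hko]; exact pow_orderOf_eq_one k
        rcases hKK _ h8 with h9 | h9 | h9
        · exfalso
          have h10 : k = 1 := congrArg Subtype.val h9
          rw [h10, orderOf_one] at hko
          omega
        · left; exact congrArg Subtype.val h9
        · right; exact congrArg Subtype.val h9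
      -- `om e` is a primitive cube root of unity
      have home : om e ≠ 1 := by
        intro hc
        obtain ⟨β, hβ⟩ := exists_sep h he1
        obtain ⟨g, hg, hgn⟩ := exists_gam h β
        have h8 : g e ≠ 1 := by rw [hg e he3]; exact hβ
        have h9 : g ∈ S := (hS g).2 hgn
        rw [hSeq] at h9
        simp only [Finset.mem_insert, Finset.mem_singleton] at h9
        rcases h9 with rfl | rfl | rfl
        · exact h8 rfl
        · exact h8 hc
        · apply h8; rw [hoi, hc, inv_one]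
      have hcube : ∀ z : ℂˣ, z ^ 3 = 1 → z ≠ 1 → 1 + ((z : ℂ) + ((z⁻¹ : ℂˣ) : ℂ)) = 0 := by
        intro z hz hz1
        have h8 : ((z : ℂˣ) : ℂ) ^ 3 = 1 := by
          have := congrArg Units.val hz
          simpa using this
        have h9 : ((z : ℂˣ) : ℂ) ≠ 1 := fun hc => hz1 (Units.ext hc)
        have h10 : ((z⁻¹ : ℂˣ) : ℂ) = (z : ℂ) ^ 2 := by
          rw [Units.val_inv_eq_inv_val]
          have hz0 : (z : ℂ) ≠ 0 := z.ne_zero
          field_simp
          rw [← h8]
        rw [h10]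
        have h11 : ((z : ℂ) - 1) * (1 + ((z : ℂ) + (z : ℂ) ^ 2)) = 0 := by linear_combination h8
        exact (mul_eq_zero.1 h11).resolve_left (sub_ne_zero.2 h9)
      have hze : ∀ u : T, u ^ 3 = 1 → u ≠ 1 → χ ((s : G) * u) = 0 := by
        intro u hu hu1
        have hsu3 : ((⟨s, hsT⟩ : T) * u) ^ 3 ≠ 1 := by
          intro hc
          letI : CommGroup T := { (inferInstance : Group T) with mul_comm := fun a b => Subtype.ext (h.comm _ a.2 _ b.2) }
          have h8 : ((⟨s, hsT⟩ : T) * u) ^ 3 = (⟨s, hsT⟩ : T) ^ 3 * u ^ 3 := mul_pow _ _ _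
          rw [h8, hu, mul_one] at hc
          exact pow_ne_of_mem h s.2 hs1 hc
        have h8 := hval ((⟨s, hsT⟩ : T) * u) hsu3
        rw [hsum3, hdo, hd1] at h8
        have h9 : ∀ g ∈ S, g ((⟨s, hsT⟩ : T) * u) = g u := by
          intro g hg
          rw [map_mul]
          have h9 : g ⟨s, hsT⟩ = 1 := by
            by_contra hc
            exact (hS g).1 hg ⟨_, s.2, hc⟩
          rw [h9, one_mul]
        rw [h9 _ h1S, h9 _ hom, h9 _ hoiS, hoi] at h8
        have hu' : u = e ∨ u = e⁻¹ := (hKK u hu).resolve_left hu1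
        have homu : om u ≠ 1 := by
          rcases hu' with rfl | rfl
          · exact home
          · rw [map_inv]; exact fun hc => home (inv_eq_one.1 hc)
        have h10 := hcube (om u) (hom3 u) homu
        have h11 : χ ((s : G) * u) = _ := h8
        rw [h11]
        have h12 : (((1 : T →* ℂˣ) u : ℂˣ) : ℂ) = 1 := rfl
        rw [h12]
        linear_combination (d om : ℂ) * h10
      have hIC : IsConj (e : G) (e : G)⁻¹ := isConj_iff.2 ⟨x⁻¹, by rw [inv_inv]; exact hinvx⟩
      refine not_three hχ hr hr3 hso heo hse hK hIC (c := 3 * d om) ?_ ?_ (hze e he3 he1) ?_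
      · rcases hdpm with h8 | h8 <;> rw [h8] <;> norm_num
      · rw [hAval s s.2 hs1, hd1]
        congr 1
        ring
      · exact hze e⁻¹ (by rw [inv_pow, he3, inv_one]) (inv_ne_one.2 he1)

end Cfsg.Agent.H221.TC
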